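import Mathlib
import Cfsg.Prelude.Def_OddOrderLocal

/-! Holds the unique copy of the on-demand lemmas of the recursive definitions of `Def_OddOrderLocal`. -/

namespace CF.Eqns

theorem Def_OddOrderLocal_0 : True := by
  have := @Cfsg.puigSeq.eq_def.{0}
  trivial

theorem Def_OddOrderLocal_1 : True := by
  have := @Cfsg.puigSeq.fun_cases
  trivial

theorem Def_OddOrderLocal_2 : True := by
  have := @Cfsg.puigSeq.fun_cases_unfolding.{0}
  trivial

theorem Def_OddOrderLocal_3 : True := by
  have := @Cfsg.puigSeq.induct
  trivial

theorem Def_OddOrderLocal_4 : True := by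
  have := @Cfsg.puigSeq.induct_unfolding.{0}
  trivial

end CF.Eqns
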