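import Mathlib

/-! Holds the unique copy of the on-demand lemmas of some recursive Mathlib definitions. -/

namespace CF.Eqns

theorem mathlib1_0 : True := by
  have := @derivedSeries.eq_def.{0}
  have := @derivedSeries.induct
  have := @derivedSeries.induct_unfolding.{0}
  have := @Subgroup.lowerCentralSeries.eq_def.{0}
  have := @Subgroup.lowerCentralSeries.induct
  have := @Subgroup.lowerCentralSeries.induct_unfolding.{0}
  have := @Subgroup.upperCentralSeriesAux.eq_def.{0}
  have := @Subgroup.upperCentralSeriesAux.induct.{0}
  have := @Subgroup.upperCentralSeriesAux.induct_unfolding.{0}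
  trivial

end CF.Eqns
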